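import Cfsg.Agent.Classical.PrimeDerangement.SympExt.Field
import Cfsg.Agent.Classical.PrimeDerangement.OddModel
import Cfsg.Agent.Classical.PrimeDerangement.SpTensorMain
import Cfsg.Agent.Classical.Semisimple.Singer

/-!
Elements of prime order of the symplectic group centralising no self-adjoint alternating field of given degree.
-/

set_option autoImplicit false
set_option maxHeartbeats 800000

namespace CfsgLib.Classical.PrimeDerangement.SympExt

open Matrix Polynomial Module

universe u

variable {F : Type u} [Field F] {d : ℕ}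

local notation "κ" => (Fin d ⊕ Fin d)

/-- The statement that `x` commutes with no self-adjoint alternating field of degree `k`. -/
def NoField (k : ℕ) (x : GL κ F) : Prop :=
  ∀ (E : Type u) [Field E] [Algebra F E] (ρ : E →ₐ[F] Matrix κ κ F), IsRep ρ → finrank F E = k →
    ¬ ∀ a, (x : Matrix κ κ F) * ρ a = ρ a * (x : Matrix κ κ F)

/-- A common eigenvector forces the field to be the base field. -/
theorem finrank_eq_one_of_eigen {E : Type*} [Field E] [Algebra F E] (ρ : E →ₐ[F] Matrix κ κ F) {v : κ → F}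
    (hv : v ≠ 0) (h : ∀ a, ∃ c : F, ρ a *ᵥ v = c • v) : finrank F E = 1 := by
  have hsurj : Function.Surjective (Algebra.linearMap F E) := fun a => by
    obtain ⟨c, hc⟩ := h a
    refine ⟨c, (Algebra.linearMap_apply F E c).trans ?_⟩
    by_contra hne
    refine hv (IsRep.mulVec_eq_zero ρ (sub_ne_zero.2 (Ne.symm hne)) ?_)
    rw [map_sub, AlgHom.commutes, Matrix.sub_mulVec, hc, Algebra.algebraMap_eq_smul_one, Matrix.smul_mulVec,
      Matrix.one_mulVec, sub_self]
  rw [← (LinearEquiv.ofBijective (Algebra.linearMap F E) ⟨(algebraMap F E).injective, hsurj⟩).finrank_eq,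
    finrank_self]

/-- A transvection. -/
theorem exists_noField_p {p : ℕ} [CharP F p] (hd : 0 < d) {k : ℕ} (hk : k ≠ 1) :
    ∃ x ∈ Cfsg.spGL d F, x ^ p = 1 ∧ ((x : Matrix κ κ F) - 1).rank ≤ 1 ∧ NoField k x := by
  classical
  set v : κ → F := Symp.stdE ⟨0, hd⟩ with hv
  set w : κ → F := Symp.stdF ⟨0, hd⟩ with hw
  set x := AltFormTransv.sympT (SympFormStd.isSymplecticForm d F) v 1 with hx
  set N := (x : Matrix κ κ F) - 1 with hN
  have hNapp : ∀ y, N *ᵥ y = Cfsg.sympForm d F y v • v := fun y => by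
    rw [hN, Matrix.sub_mulVec, hx, AltFormTransv.sympT_mulVec, Matrix.one_mulVec, one_mul, add_sub_cancel_left]
  have hwv : Cfsg.sympForm d F w v = -1 := by rw [hw, hv, Symp.form_stdF_stdE, if_pos rfl]
  have hv0 : v ≠ 0 := fun h => by simpa [hv, Symp.stdE] using congrFun h (Sum.inr ⟨0, hd⟩)
  have hNN : N * N = 0 := Matrix.mulVec_injective (funext fun y => by
    rw [← Matrix.mulVec_mulVec, hNapp, hNapp, Symp.form_smul_left, Symp.form_self, mul_zero, zero_smul,
      Matrix.zero_mulVec])
  have hpow : ∀ k : ℕ, ((x ^ k : GL κ F) : Matrix κ κ F) = 1 + (k : F) • N := by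
    intro k
    induction k with
    | zero => simp
    | succ k ih =>
      rw [pow_succ, Units.val_mul, ih, show (x : Matrix κ κ F) = 1 + N by rw [hN]; abel, mul_add, mul_one, add_mul,
        one_mul, Matrix.smul_mul, hNN, smul_zero, add_zero, Nat.cast_succ, add_smul, one_smul, add_assoc]
  refine ⟨x, SympFormStd.sympT_mem_spGL v 1, Units.ext (by
    rw [hpow, CharP.cast_eq_zero, zero_smul, add_zero, Units.val_one]), ?_, fun E _ _ ρ _ hE hcomm => ?_⟩
  · refine (Submodule.finrank_mono (show LinearMap.range N.mulVecLin ≤ F ∙ v from ?_)).trans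
      (finrank_span_singleton hv0).le
    rintro _ ⟨y, rfl⟩
    rw [Matrix.mulVecLin_apply, hNapp]
    exact Submodule.smul_mem _ _ (Submodule.mem_span_singleton_self v)
  · refine hk (hE.symm.trans (finrank_eq_one_of_eigen ρ hv0 fun a => ⟨-Cfsg.sympForm d F (ρ a *ᵥ w) v, ?_⟩))
    have hc : N * ρ a = ρ a * N := by rw [hN, sub_mul, mul_sub, one_mul, mul_one, hcomm]
    have h1 := congrArg (fun M => M *ᵥ w) hc
    simp only [← Matrix.mulVec_mulVec, hNapp, hwv, neg_one_smul, Matrix.mulVec_neg] at h1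
    rw [neg_smul, h1, neg_neg]

/-- The sign change on one hyperbolic pair. -/
theorem exists_noField_two (h2 : (2 : F) ≠ 0) (hd : 0 < d) {k : ℕ} (hk : k ≠ 1) :
    ∃ x ∈ Cfsg.spGL d F, x * x = 1 ∧ ((x : Matrix κ κ F) - 1).rank ≤ 2 ∧ NoField k x := by
  classical
  set z : Fin d := ⟨0, hd⟩ with hz
  set s : Fin d → F := fun j => if j ∈ ({z} : Finset (Fin d)) then -1 else 1 with hs
  set D : Matrix κ κ F := Matrix.diagonal (Sum.elim s s) with hD
  have hss : ∀ j, s j * s j = 1 := fun j => by simp only [hs]; split <;> ring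
  have hDD : D * D = 1 := by
    rw [hD, Matrix.diagonal_mul_diagonal, ← Matrix.diagonal_one]
    congr 1; funext j; rcases j with j | j <;> exact hss j
  let x : GL κ F := ⟨D, D, hDD, hDD⟩
  have hx : x ∈ Cfsg.spGL d F := SympFormStd.mem_spGL.2 fun u v => by
    show Cfsg.sympForm d F (D *ᵥ u) (D *ᵥ v) = _
    rw [Symp.form_apply, Symp.form_apply]
    refine Finset.sum_congr rfl fun j _ => ?_
    simp only [hD, Matrix.mulVec_diagonal, Sum.elim_inl, Sum.elim_inr]
    linear_combination (u (Sum.inr j) * v (Sum.inl j) - u (Sum.inl j) * v (Sum.inr j)) * hss j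
  refine ⟨x, hx, Units.ext hDD, ?_, fun E _ _ ρ hρ hE hcomm => ?_⟩
  · show (D - 1).rank ≤ 2
    rw [hD, hs, SpTensor.rank_sign {z} h2]
    simp
  set e : κ → F := Pi.single (Sum.inl z) 1 with he
  have he0 : e ≠ 0 := fun h => by simpa [he] using congrFun h (Sum.inl z)
  refine hk (hE.symm.trans (finrank_eq_one_of_eigen ρ he0 fun a => ⟨(ρ a *ᵥ e) (Sum.inl z), ?_⟩))
  have h1 : D *ᵥ (ρ a *ᵥ e) = -(ρ a *ᵥ e) := by
    rw [Matrix.mulVec_mulVec, show D * ρ a = ρ a * D from hcomm a, ← Matrix.mulVec_mulVec,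
      show D *ᵥ e = -e from funext fun j => by
        rw [hD, Matrix.mulVec_diagonal]; by_cases h : j = Sum.inl z <;> simp [he, h, hs],
      Matrix.mulVec_neg]
  have h0 : ∀ j, j ≠ z → (ρ a *ᵥ e) (Sum.inl j) = 0 ∧ (ρ a *ᵥ e) (Sum.inr j) = 0 := fun j hj => by
    have ha := congrFun h1 (Sum.inl j)
    have hb := congrFun h1 (Sum.inr j)
    simp only [hD, Matrix.mulVec_diagonal, Sum.elim_inl, Sum.elim_inr, hs, Finset.mem_singleton, if_neg hj, one_mul,
      Pi.neg_apply] at ha hb
    constructor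
    · exact (mul_eq_zero.1 (show (2 : F) * _ = 0 by linear_combination ha)).resolve_left h2
    · exact (mul_eq_zero.1 (show (2 : F) * _ = 0 by linear_combination hb)).resolve_left h2
  have hr0 : (ρ a *ᵥ e) (Sum.inr z) = 0 := by
    have h := hρ.alt a e
    rw [show e = Symp.stdF z from rfl, Symp.form_stdF_right] at h
    exact h
  generalize ρ a *ᵥ e = w at h0 hr0 ⊢
  funext j
  rcases j with j | j <;> by_cases hj : j = z
  · simp [he, hj]
  · simp [he, hj, (h0 j hj).1]
  · simp [he, hj, hr0]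
  · simp [he, (h0 j hj).2]

variable [Fintype F] {r : ℕ} [Fact r.Prime]

/-- Order of `q` modulo `r` odd and not divisible by the degree. -/
theorem exists_noField_odd (hr2 : r ≠ 2) (hrF : (r : F) ≠ 0) (hodd : Odd (orderOf (Fintype.card F : ZMod r)))
    (hid : orderOf (Fintype.card F : ZMod r) ≤ d) {k : ℕ} (hki : ¬ k ∣ orderOf (Fintype.card F : ZMod r)) :
    ∃ x ∈ Cfsg.spGL d F, x ^ r = 1 ∧
      ((x : Matrix κ κ F) - 1).rank ≤ 2 * orderOf (Fintype.card F : ZMod r) ∧ NoField k x := by
  classical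
  obtain ⟨x, hx, hxr, -, hrk, P, hW⟩ := exists_odd_model (d := d) hr2 hrF hodd hid
  refine ⟨x, hx, hxr, hrk, fun E _ _ ρ _ hE hcomm => hki ?_⟩
  let act : E →ₐ[F] Module.End F (κ → F) :=
    (Matrix.toLinAlgEquiv' : _ ≃ₐ[F] Module.End F (κ → F)).toAlgHom.comp ρ
  letI : Module E (κ → F) := Module.compHom (κ → F) act.toRingHom
  have hsmul : ∀ (a : E) (v : κ → F), a • v = ρ a *ᵥ v := fun a v => rfl
  haveI : IsScalarTower F E (κ → F) := ⟨fun c a v => by
    show act (c • a) v = c • act a v
    rw [map_smul]; rfl⟩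
  let W : Submodule E (κ → F) :=
    { carrier := {v | aeval (x : Matrix κ κ F) P *ᵥ v = 0}
      add_mem' := fun {u v} hu hv => by
        simp only [Set.mem_setOf_eq] at hu hv ⊢
        rw [Matrix.mulVec_add, hu, hv, add_zero]
      zero_mem' := Matrix.mulVec_zero _
      smul_mem' := fun a v hv => by
        have h4 : ∀ Q : F[X], Commute (aeval (x : Matrix κ κ F) Q) (ρ a) := by
          intro Q
          induction Q using Polynomial.induction_on' with
          | add p q hp hq => rw [map_add]; exact hp.add_left hq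
          | monomial n c =>
            rw [aeval_monomial]
            exact (Algebra.commute_algebraMap_left c _).mul_left
              ((show Commute (x : Matrix κ κ F) (ρ a) from hcomm a).pow_left n)
        simp only [Set.mem_setOf_eq] at hv ⊢
        rw [hsmul, Matrix.mulVec_mulVec, (h4 P).eq, ← Matrix.mulVec_mulVec, hv, Matrix.mulVec_zero] }
  have h := Module.finrank_mul_finrank F E W
  rw [hE, show finrank F W = orderOf (Fintype.card F : ZMod r) from hW] at h
  exact ⟨_, h.symm⟩

/-- Order of `q` modulo `r` twice a number not divisible by the degree. -/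
theorem exists_noField_even (hr2 : r ≠ 2) (hrF : (r : F) ≠ 0) {m : ℕ}
    (hi : orderOf (Fintype.card F : ZMod r) = 2 * m) (hmd : m ≤ d) {k : ℕ} (hkm : ¬ k ∣ m) :
    ∃ x ∈ Cfsg.spGL d F, x ^ r = 1 ∧ ((x : Matrix κ κ F) - 1).rank ≤ 2 * m ∧ NoField k x := by
  classical
  have hm0 : 0 < m := by have := Semisimple.orderOf_card_pos (F := F) (r := r) hrF; omega
  have hh : 2 * m = if Even (orderOf (Fintype.card F : ZMod r)) then orderOf (Fintype.card F : ZMod r)
      else 2 * orderOf (Fintype.card F : ZMod r) := by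
    rw [hi, if_pos (even_two_mul m)]
  obtain ⟨y, hy, hy1, hyfix⟩ := Semisimple.SympModel.exists_fpf hr2 hrF hh
  obtain ⟨P, hP, -, hPd, hP0⟩ := Semisimple.exists_irreducible_aeval_eq_zero_of_orderOf_eq hrF
    (f := Matrix.toLinAlgEquiv' (y : Matrix (Fin m ⊕ Fin m) (Fin m ⊕ Fin m) F))
    (by rw [Semisimple.SympModel.finrank_space, hi])
    (by rw [← map_pow, ← SubmonoidClass.coe_pow, hy, OneMemClass.coe_one, map_one])
    (fun h => hy1 (Subtype.ext ((Matrix.toLinAlgEquiv').injective (h.trans (map_one _).symm))))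
  rw [Semisimple.SympModel.finrank_space] at hPd
  obtain ⟨xs, ι, π, hxr, hπx, -, -, -, hfixed, hdim⟩ :=
    Semisimple.SympModel.exists_model (d := d) (L := 1) (h := m) (by omega) (fun _ => y) (fun _ => hy)
      (fun _ => hyfix)
  have hs := Semisimple.SympModel.setting hr2 hrF hxr
  set f := Matrix.toLin' (xs : Matrix κ κ F) with hf
  have hW : Module.finrank F (Semisimple.AltIsometry.moved f) = 2 * m := by
    have := Semisimple.SympModel.finrank_fixed_add_moved hs
    rw [← hf] at this
    rw [one_mul] at hdim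
    omega
  set W := Semisimple.AltIsometry.moved f with hWdef
  have hfinv : ∀ w ∈ W, f w ∈ W := fun w hw =>
    Semisimple.AltIsometry.moved_map_le (Submodule.mem_map_of_mem hw)
  have hπf : ∀ (Q : F[X]) (v : κ → F), π 0 (aeval f Q v) =
      aeval (Matrix.toLinAlgEquiv' (y : Matrix (Fin m ⊕ Fin m) (Fin m ⊕ Fin m) F)) Q (π 0 v) := by
    intro Q
    induction Q using Polynomial.induction_on with
    | C c => intro v; simp [Module.algebraMap_end_apply]
    | add p q hp hq => intro v; simp [hp, hq]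
    | monomial n c ih =>
      intro v
      rw [pow_succ, ← mul_assoc, map_mul, map_mul (aeval (Matrix.toLinAlgEquiv' _)), aeval_X, aeval_X,
        Module.End.mul_apply, Module.End.mul_apply, ih]
      congr 1
      rw [hf, Matrix.toLin'_apply, hπx]
      rfl
  have hkill : ∀ w ∈ W, aeval f P w = 0 := by
    intro w hw
    have h1 : aeval f P w ∈ W :=
      Semisimple.aeval_mem (Semisimple.map_le_of_forall_mem hfinv) P hw
    refine Submodule.disjoint_def.1 hs.isCompl.disjoint _ ((hfixed _).2 fun s => ?_) h1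
    rw [Subsingleton.elim s 0, hπf, hP0]
    rfl
  obtain ⟨w0, hw0W, hw0⟩ : ∃ w ∈ W, w ≠ 0 := by
    refine Submodule.exists_mem_ne_zero_of_ne_bot fun h => ?_
    rw [h, finrank_bot] at hW
    omega
  obtain ⟨W0, hW0inv, hw0W0, hW0d, hW0le, -⟩ :=
    Semisimple.exists_invariant_of_aeval_apply_eq_zero hP hw0 (hkill w0 hw0W)
  have hW0eq : W0 = W := Submodule.eq_of_le_of_finrank_eq (hW0le W (Semisimple.map_le_of_forall_mem hfinv) hw0W)
    (by rw [hW0d, hW, hPd])
  have hcyc : ∀ w ∈ W, ∃ Q : F[X], aeval f Q w0 = w := by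
    intro w hw
    let φ : F[X] →ₗ[F] (κ → F) := (LinearMap.applyₗ w0).comp (aeval f).toLinearMap
    have h1 : W0 ≤ LinearMap.range φ := hW0le _ (Semisimple.map_le_of_forall_mem (by
      rintro _ ⟨p, rfl⟩
      exact ⟨Polynomial.X * p, by simp [φ]⟩)) ⟨1, by simp [φ]⟩
    rw [hW0eq] at h1
    exact h1 hw
  have key : ∀ Q : F[X], aeval f Q w0 = 0 → (aeval (AdjoinRoot.root P)) Q = 0 := by
    intro Q hQ
    by_cases hd : P ∣ Q
    · obtain ⟨c, rfl⟩ := hd
      simp [aeval_def, AdjoinRoot.eval₂_root]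
    · obtain ⟨a, b, hab⟩ := hP.coprime_iff_not_dvd.2 hd
      refine absurd ?_ hw0
      calc w0 = aeval f (a * P + b * Q) w0 := by rw [hab, map_one]; rfl
        _ = 0 := by simp [hQ, hkill w0 hw0W]
  refine ⟨SpTensor.ofSp xs, SpTensor.ofSp_mem xs, by rw [← map_pow, hxr, map_one], ?_,
    fun E _ _ ρ hρ hE hcomm => hkm ?_⟩
  · have h1 := SpTensor.rank_sub_one (xs : Matrix κ κ F)
    have h3 := Semisimple.SympModel.finrank_fixed_add_moved hs
    rw [← hf] at h1 h3
    rw [← hWdef] at h3
    show ((xs : Matrix κ κ F) - 1).rank ≤ 2 * m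
    omega
  simp only [SpTensor.coe_ofSp] at hcomm
  have hjaeval : ∀ (a : E) (Q : F[X]) (v : κ → F), ρ a *ᵥ aeval f Q v = aeval f Q (ρ a *ᵥ v) := by
    intro a Q
    induction Q using Polynomial.induction_on with
    | C c => intro v; simp [Module.algebraMap_end_apply, Matrix.mulVec_smul]
    | add p q hp hq => intro v; simp [hp, hq, Matrix.mulVec_add]
    | monomial n c ih =>
      intro v
      rw [pow_succ, ← mul_assoc, map_mul, aeval_X, Module.End.mul_apply, Module.End.mul_apply, ih]
      congr 1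
      rw [hf, Matrix.toLin'_apply, Matrix.toLin'_apply, Matrix.mulVec_mulVec, Matrix.mulVec_mulVec, hcomm]
  have hjW : ∀ (a : E), ∀ w ∈ W, ρ a *ᵥ w ∈ W := by
    rintro a _ ⟨v, rfl⟩
    refine ⟨ρ a *ᵥ v, ?_⟩
    rw [show f - (1 : F) • 1 = aeval f (Polynomial.X - 1 : F[X]) by simp, hjaeval]
  choose C hC using fun a : E => hcyc (ρ a *ᵥ w0) (hjW a w0 hw0W)
  set α := AdjoinRoot.root P with hα
  haveI : Fact (Irreducible P) := ⟨hP⟩
  have keyeq : ∀ Q Q' : F[X], aeval f Q w0 = aeval f Q' w0 → aeval α Q = aeval α Q' := by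
    intro Q Q' h
    have h' := key (Q - Q') (by rw [map_sub, LinearMap.sub_apply, h, sub_self])
    rwa [map_sub, sub_eq_zero] at h'
  let ψ : E →ₐ[F] AdjoinRoot P :=
    { toFun := fun a => aeval α (C a)
      map_one' := by rw [keyeq (C 1) 1 (by rw [hC, map_one, Matrix.one_mulVec, map_one]; rfl), map_one]
      map_mul' := fun a b => by
        rw [keyeq (C (a * b)) (C a * C b) (by
          rw [hC, map_mul (aeval f), Module.End.mul_apply, hC b, ← hjaeval, hC a, Matrix.mulVec_mulVec, ← map_mul,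
            mul_comm b a]), map_mul]
      map_zero' := by rw [keyeq (C 0) 0 (by rw [hC, map_zero, Matrix.zero_mulVec, map_zero]; rfl), map_zero]
      map_add' := fun a b => by
        rw [keyeq (C (a + b)) (C a + C b) (by
          rw [hC, map_add (aeval f), LinearMap.add_apply, hC, hC, map_add, Matrix.add_mulVec]), map_add]
      commutes' := fun c => by
        rw [keyeq (C (algebraMap F E c)) (Polynomial.C c) (by
          rw [hC, AlgHom.commutes, Algebra.algebraMap_eq_smul_one, Matrix.smul_mulVec, Matrix.one_mulVec, aeval_C,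
            Module.algebraMap_end_apply]), aeval_C] }
  have hjC : ∀ (a : E), ∀ w ∈ W, ρ a *ᵥ w = aeval f (C a) w := by
    intro a w hw
    obtain ⟨Q, rfl⟩ := hcyc w hw
    rw [hjaeval, ← hC, ← Module.End.mul_apply, ← Module.End.mul_apply, ← map_mul, ← map_mul, mul_comm]
  have hr1 : 1 ≤ r := (Fact.out : r.Prime).one_le
  set Y : F[X] := Polynomial.X ^ (r - 1) with hY
  have hadj : ∀ (Q : F[X]), ∀ u v, Semisimple.SympModel.formB d F (aeval f Q u) v =
      Semisimple.SympModel.formB d F u (aeval f (Q.comp Y) v) := fun Q u v => by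
    rw [hs.aeval_adjoint Q u v, aeval_comp, hY, map_pow, aeval_X]
  have hαY : aeval α (P.comp Y) = 0 := key _ (by
    refine hs.nondeg_moved _ (Semisimple.aeval_mem (Semisimple.map_le_of_forall_mem hfinv) _ hw0W) fun v hv => ?_
    rw [Semisimple.SympModel.formB_apply, Symp.form_swap, ← Semisimple.SympModel.formB_apply, ← hadj, hkill v hv]
    simp)
  have hαr : α ^ r = 1 := by
    have h := key (Polynomial.X ^ r - 1) (by
      rw [map_sub, map_pow, aeval_X, map_one, hs.pow, sub_self]; rfl)
    simpa [sub_eq_zero] using h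
  have hCY : ∀ a, aeval α ((C a).comp Y) = ψ a := fun a => keyeq _ _ (by
    refine sub_eq_zero.1 ?_
    rw [← LinearMap.sub_apply, ← map_sub]
    refine hs.nondeg_moved _ (Semisimple.aeval_mem (Semisimple.map_le_of_forall_mem hfinv) _ hw0W) fun v hv => ?_
    rw [Semisimple.SympModel.formB_apply, Symp.form_swap, map_sub, LinearMap.sub_apply, Symp.form_sub_right,
      ← Semisimple.SympModel.formB_apply, ← hadj, ← hjC a v hv, Semisimple.SympModel.formB_apply, hρ.adj, hC,
      sub_self, neg_zero])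
  haveI : FiniteDimensional F (AdjoinRoot P) := (AdjoinRoot.powerBasis hP.ne_zero).finite
  haveI : Finite (AdjoinRoot P) := Module.finite_of_finite F
  let σ0 : AdjoinRoot P →ₐ[F] AdjoinRoot P := AdjoinRoot.liftAlgHom P (Algebra.ofId F _) (α ^ (r - 1)) (by
    rw [aeval_comp, hY, map_pow, aeval_X] at hαY
    exact hαY)
  let σ : AdjoinRoot P ≃ₐ[F] AdjoinRoot P :=
    AlgEquiv.ofBijective σ0 (Finite.injective_iff_bijective.1 σ0.toRingHom.injective)
  have hσα : σ α = α ^ (r - 1) := by
    show σ0 α = _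
    simp [σ0, hα]
  have hσψ : ∀ a, σ (ψ a) = ψ a := fun a => by
    have h : σ (ψ a) = aeval (σ α) (C a) := (aeval_algHom_apply σ.toAlgHom α (C a)).symm
    rw [h, hσα, ← hCY, aeval_comp, hY, map_pow, aeval_X]
  have hσ2 : σ ^ 2 = 1 := by
    refine AlgEquiv.coe_algHom_injective (AdjoinRoot.algHom_ext ?_)
    show σ (σ α) = α
    rw [hσα, map_pow, hσα, ← pow_mul, pow_eq_pow_mod _ hαr]
    have : (r - 1) * (r - 1) % r = 1 := by
      obtain ⟨k, rfl⟩ : ∃ k, r = k + 2 := ⟨r - 2, by have := (Fact.out : r.Prime).two_le; omega⟩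
      rw [show (k + 2 - 1) * (k + 2 - 1) = 1 + (k + 2) * k by
        rw [show k + 2 - 1 = k + 1 by omega]; ring, Nat.add_mul_mod_self_left, Nat.one_mod_eq_one.2 (by omega)]
    rw [this, pow_one]
  have hσ1 : σ ≠ 1 := by
    intro h
    have hα2 : α * α = 1 := by
      have e : α ^ (r - 1) = α := by rw [← hσα, h]; rfl
      nth_rw 1 [← e]
      rw [← pow_succ, Nat.sub_add_cancel hr1, hαr]
    have hα1 : α = 1 := by
      obtain ⟨j, hj⟩ := (Fact.out : r.Prime).odd_of_ne_two hr2
      rw [hj, pow_succ, pow_mul, pow_two, hα2, one_pow, one_mul] at hαr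
      exact hαr
    have hdvd : P ∣ Polynomial.X - 1 := AdjoinRoot.mk_eq_zero.1 (by
      rw [← AdjoinRoot.aeval_eq, map_sub, aeval_X, map_one, ← hα, hα1, sub_self])
    have := Polynomial.natDegree_le_of_dvd hdvd (by simpa using Polynomial.X_sub_C_ne_zero (1 : F))
    rw [hPd, show (1 : F[X]) = Polynomial.C 1 from Polynomial.C_1.symm, Polynomial.natDegree_X_sub_C] at this
    omega
  have ho : orderOf σ = 2 := orderOf_eq_prime hσ2 hσ1
  set H := Subgroup.zpowers σ with hH
  set L := IntermediateField.fixedField H with hL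
  have hfix : ∀ a, ψ a ∈ L := fun a g => by
    have hle : H ≤ MulAction.stabilizer (AdjoinRoot P ≃ₐ[F] AdjoinRoot P) (ψ a) := Subgroup.zpowers_le.2 (hσψ a)
    exact hle g.2
  let ψ' : E →ₐ[F] L := ψ.codRestrict L.toSubalgebra hfix
  letI : Algebra E L := ψ'.toRingHom.toAlgebra
  haveI : IsScalarTower F E L := IsScalarTower.of_algebraMap_eq fun c => (ψ'.commutes c).symm
  have h1 : finrank F L = m := by
    have h := Module.finrank_mul_finrank F L (AdjoinRoot P)
    rw [show finrank L (AdjoinRoot P) = Nat.card H from IntermediateField.finrank_fixedField_eq_card (H := H),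
      Nat.card_zpowers, ho, (AdjoinRoot.powerBasis hP.ne_zero).finrank, AdjoinRoot.powerBasis_dim, hPd] at h
    omega
  exact ⟨_, by rw [← h1, ← Module.finrank_mul_finrank F E L, hE]⟩

end CfsgLib.Classical.PrimeDerangement.SympExt
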