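import Cfsg.Agent.Classical.PrimeDerangement.SpTensor
import Cfsg.Agent.LinAlg.Witt.Bases
import Cfsg.Agent.Eq.Def_GeometricClasses

/-!
Fields acting by self-adjoint alternating maps on a symplectic space: the symplectic group over the field inside
the centraliser, and normalising elements.
-/

set_option autoImplicit false
set_option maxHeartbeats 800000

namespace CfsgLib.Classical.PrimeDerangement.SympExt

open Matrix Module

universe u

variable {F : Type u} [Field F] {d : ℕ}

local notation "κ" => (Fin d ⊕ Fin d)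

/-- A self-adjoint alternating representation of a field on the standard symplectic space. -/
structure IsRep {E : Type*} [Field E] [Algebra F E] (ρ : E →ₐ[F] Matrix κ κ F) : Prop where
  adj : ∀ a u v, Cfsg.sympForm d F (ρ a *ᵥ u) v = Cfsg.sympForm d F u (ρ a *ᵥ v)
  alt : ∀ a v, Cfsg.sympForm d F (ρ a *ᵥ v) v = 0

theorem IsRep.mulVec_eq_zero {E : Type*} [Field E] [Algebra F E] (ρ : E →ₐ[F] Matrix κ κ F) {a : E} (ha : a ≠ 0)
    {v : κ → F} (h : ρ a *ᵥ v = 0) : v = 0 := by
  have h1 := congrArg (fun w => ρ a⁻¹ *ᵥ w) h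
  simp only [Matrix.mulVec_mulVec, ← map_mul, inv_mul_cancel₀ ha, map_one, Matrix.one_mulVec, Matrix.mulVec_zero] at h1
  exact h1

theorem isField_subalgebra (hd : 0 < d) {k : ℕ} {K : Subalgebra F (Matrix κ κ F)}
    (hK : Cfsg.Geo.IsFieldSubalgebra k K) : IsField K :=
  { exists_pair_ne := ⟨0, 1, fun h => by
      have := congrArg (fun a : K => (a : Matrix κ κ F) (Sum.inl ⟨0, hd⟩) (Sum.inl ⟨0, hd⟩)) h
      simp at this⟩
    mul_comm := fun a b => Subtype.ext (hK.comm a a.2 b b.2)
    mul_inv_cancel := fun {a} ha => by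
      obtain ⟨b, hb, hab⟩ := hK.inv a a.2 fun h => ha (Subtype.ext h)
      exact ⟨⟨b, hb⟩, Subtype.ext hab⟩ }

/-- A field subalgebra as a representation. -/
theorem exists_rep [Finite F] (hd : 0 < d) {k : ℕ} {K : Subalgebra F (Matrix κ κ F)}
    (hK : Cfsg.Geo.IsFieldSubalgebra k K) (hKf : Cfsg.Geo.IsSelfAdjointFor (Cfsg.sympForm d F) K)
    (hKalt : ∀ a ∈ K, ∀ v, Cfsg.sympForm d F (a *ᵥ v) v = 0) :
    ∃ (E : Type u) (_ : Field E) (_ : Algebra F E) (ρ : E →ₐ[F] Matrix κ κ F), Finite E ∧
      finrank F E = k ∧ IsRep ρ ∧ ∀ m, m ∈ K ↔ ∃ a, ρ a = m := by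
  classical
  let iK : Field K := { (isField_subalgebra hd hK).toField, (inferInstance : Ring K) with }
  exact ⟨K, iK, inferInstance, K.val, Finite.of_injective Subtype.val Subtype.val_injective, hK.finrank_eq,
    ⟨fun a => hKf a a.2, fun a => hKalt a a.2⟩, fun m => ⟨fun h => ⟨⟨m, h⟩, rfl⟩, fun ⟨a, ha⟩ => ha ▸ a.2⟩⟩

/-- The symplectic elements commuting with the field. -/
def cent {E : Type*} [Field E] [Algebra F E] (ρ : E →ₐ[F] Matrix κ κ F) : Subgroup (GL κ F) where
  carrier := {g | g ∈ Cfsg.spGL d F ∧ ∀ a, (g : Matrix κ κ F) * ρ a = ρ a * (g : Matrix κ κ F)}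
  one_mem' := ⟨one_mem _, fun a => by simp⟩
  mul_mem' := fun {x y} hx hy => ⟨mul_mem hx.1 hy.1, fun a => by
    rw [Units.val_mul, mul_assoc, hy.2, ← mul_assoc, hx.2, mul_assoc]⟩
  inv_mem' := fun {x} hx => ⟨inv_mem hx.1, fun a => by
    calc ((x⁻¹ : GL κ F) : Matrix κ κ F) * ρ a
        = ((x⁻¹ : GL κ F) : Matrix κ κ F) * (ρ a * (x : Matrix κ κ F)) * ((x⁻¹ : GL κ F) : Matrix κ κ F) := by
          simp [mul_assoc]
      _ = _ := by rw [← hx.2, ← mul_assoc, Units.inv_mul, one_mul]⟩

/-- The symplectic group over the field embeds into the centraliser. -/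
theorem exists_card_dvd [Fintype F] {E : Type*} [Field E] [Algebra F E] [Finite E] {ρ : E →ₐ[F] Matrix κ κ F}
    (hρ : IsRep ρ) :
    ∃ e, d = finrank F E * e ∧ Nat.card (Matrix.symplecticGroup (Fin e) E) ∣ Nat.card (cent ρ) := by
  classical
  haveI : FiniteDimensional F E := Module.Finite.of_finite
  let act : E →ₐ[F] Module.End F (κ → F) :=
    (Matrix.toLinAlgEquiv' : _ ≃ₐ[F] Module.End F (κ → F)).toAlgHom.comp ρ
  letI : Module E (κ → F) := Module.compHom (κ → F) act.toRingHom
  have hsmul : ∀ (a : E) (v : κ → F), a • v = ρ a *ᵥ v := fun a v => rfl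
  haveI : IsScalarTower F E (κ → F) := ⟨fun c k v => by
    show act (c • k) v = c • act k v
    rw [map_smul]; rfl⟩
  haveI : FiniteDimensional E (κ → F) := Module.Finite.of_restrictScalars_finite F E (κ → F)
  let T := LinearMap.BilinForm.toDual (Algebra.traceForm F E) (traceForm_nondegenerate F E)
  let φ : (κ → F) → (κ → F) → Module.Dual F E := fun u v =>
    { toFun := fun a => Cfsg.sympForm d F (ρ a *ᵥ u) v
      map_add' := fun a b => by rw [map_add, Matrix.add_mulVec, Symp.form_add_left]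
      map_smul' := fun c a => by
        rw [map_smul, Matrix.smul_mulVec, Symp.form_smul_left, RingHom.id_apply, smul_eq_mul] }
  let b : (κ → F) → (κ → F) → E := fun u v => T.symm (φ u v)
  have hb : ∀ u v a, Algebra.trace F E (b u v * a) = Cfsg.sympForm d F (ρ a *ᵥ u) v := fun u v a => by
    have h : T (b u v) a = φ u v a := by rw [LinearEquiv.apply_symm_apply]
    exact h
  have ext : ∀ x y : E, (∀ a, Algebra.trace F E (x * a) = Algebra.trace F E (y * a)) → x = y := fun x y h =>
    T.injective (LinearMap.ext fun a => h a)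
  have hadd : ∀ u u' v, b (u + u') v = b u v + b u' v := fun u u' v => ext _ _ fun a => by
    rw [add_mul, map_add, hb, hb, hb, Matrix.mulVec_add, Symp.form_add_left]
  have hsl : ∀ (c : E) u v, b (c • u) v = c * b u v := fun c u v => ext _ _ fun a => by
    rw [hb, mul_comm c, mul_assoc, hb, hsmul, Matrix.mulVec_mulVec, ← map_mul, mul_comm a]
  have haddr : ∀ u v v', b u (v + v') = b u v + b u v' := fun u v v' => ext _ _ fun a => by
    rw [add_mul, map_add, hb, hb, hb, Symp.form_add_right]
  have hsr : ∀ (c : E) u v, b u (c • v) = c * b u v := fun c u v => ext _ _ fun a => by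
    rw [hb, mul_comm c, mul_assoc, hb, hsmul, ← hρ.adj, Matrix.mulVec_mulVec, ← map_mul]
  let β : LinearMap.BilinForm E (κ → F) := LinearMap.mk₂ E b hadd hsl haddr hsr
  have hA : β.IsAlt := fun u => ext _ _ fun a => by
    rw [zero_mul, map_zero]
    show Algebra.trace F E (b u u * a) = 0
    rw [hb, hρ.alt]
  have hker : LinearMap.ker β = ⊥ := LinearMap.ker_eq_bot'.2 fun u h => Symp.eq_zero_of_form_eq_zero fun v => by
    have h1 : b u v = 0 := LinearMap.congr_fun h v
    have h2 := hb u v 1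
    rw [h1, zero_mul, map_zero, map_one, Matrix.one_mulVec] at h2
    exact h2.symm
  obtain ⟨e, bb, hdim, hef, hee, hff⟩ := LinAlg.Witt.exists_symplectic_basis β hA hker
  let B := bb.reindex (Equiv.sumComm _ _)
  let ε : (κ → F) ≃ₗ[E] (Fin e ⊕ Fin e → E) := B.equivFun
  have hform : ∀ u v, b u v = Cfsg.sympForm e E (ε u) (ε v) := by
    suffices β = (Semisimple.SympModel.formB e E).compl₁₂ ε.toLinearMap ε.toLinearMap from
      fun u v => LinearMap.congr_fun (LinearMap.congr_fun this u) v
    refine LinearMap.ext_basis B B fun i j => ?_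
    have hi : ∀ i, ε (B i) = Pi.single i 1 := fun i => by
      funext k; simp [ε, Module.Basis.equivFun_self, Pi.single_apply, eq_comm]
    simp only [LinearMap.compl₁₂_apply, LinearEquiv.coe_coe, hi, Semisimple.SympModel.formB_apply]
    have hfe : ∀ i j, β (bb (Sum.inr i)) (bb (Sum.inl j)) = if i = j then -1 else 0 := fun i j => by
      rw [← LinearMap.BilinForm.IsAlt.neg_eq hA, hef]
      by_cases h : i = j <;> simp [h, eq_comm]
    rcases i with i | i <;> rcases j with j | j <;>
      simp only [B, Module.Basis.reindex_apply, Equiv.sumComm_symm, Equiv.sumComm_apply, Sum.swap_inl, Sum.swap_inr]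
    · rw [hff]; exact (Symp.form_stdF_stdF i j).symm
    · rw [hfe]; exact (Symp.form_stdF_stdE i j).symm
    · rw [hef]; exact (Symp.form_stdE_stdF i j).symm
    · rw [hee]; exact (Symp.form_stdE_stdE i j).symm
  have hd : d = finrank F E * e := by
    have h1 := Module.finrank_mul_finrank F E (κ → F)
    rw [hdim, Module.finrank_fintype_fun_eq_card, Fintype.card_sum, Fintype.card_fin] at h1
    have h2 : finrank F E * (2 * e) = 2 * (finrank F E * e) := by ring
    omega
  refine ⟨e, hd, ?_⟩
  let Φ : Matrix (Fin e ⊕ Fin e) (Fin e ⊕ Fin e) E → Module.End F (κ → F) := fun M =>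
    (ε.symm.toLinearMap ∘ₗ Matrix.toLin' M ∘ₗ ε.toLinearMap).restrictScalars F
  have hΦ : ∀ M v, Φ M v = ε.symm (M *ᵥ ε v) := fun M v => by simp [Φ]
  let ψ : Matrix.symplecticGroup (Fin e) E →* Matrix κ κ F :=
    { toFun := fun g => LinearMap.toMatrix' (Φ g.1)
      map_one' := by
        rw [show Φ ((1 : Matrix.symplecticGroup (Fin e) E) : Matrix (Fin e ⊕ Fin e) (Fin e ⊕ Fin e) E) = LinearMap.id
          from LinearMap.ext fun v => by simp [hΦ], LinearMap.toMatrix'_id]
      map_mul' := fun g h => by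
        rw [← LinearMap.toMatrix'_comp]
        congr 1
        refine LinearMap.ext fun v => ?_
        simp [hΦ, Matrix.mulVec_mulVec] }
  have hψ : ∀ g v, ψ g *ᵥ v = ε.symm ((g : Matrix (Fin e ⊕ Fin e) (Fin e ⊕ Fin e) E) *ᵥ ε v) := fun g v => by
    show LinearMap.toMatrix' (Φ g.1) *ᵥ v = _
    rw [LinearMap.toMatrix'_mulVec, hΦ]
  refine Subgroup.card_dvd_of_injective (ψ.toHomUnits.codRestrict (cent ρ) fun g =>
    ⟨SympFormStd.mem_spGL.2 fun u v => ?_, fun a => ?_⟩) ?_
  · show Cfsg.sympForm d F (ψ g *ᵥ u) (ψ g *ᵥ v) = _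
    have h := hb (ψ g *ᵥ u) (ψ g *ᵥ v) 1
    rw [map_one, Matrix.one_mulVec, hform, hψ, hψ, LinearEquiv.apply_symm_apply, LinearEquiv.apply_symm_apply,
      Symp.form_mulVec, ← hform, hb, map_one, Matrix.one_mulVec] at h
    rw [hψ, hψ]
    exact h.symm
  · show ψ g * ρ a = ρ a * ψ g
    refine Matrix.ext_of_mulVec_single fun k => ?_
    rw [← Matrix.mulVec_mulVec, ← Matrix.mulVec_mulVec, hψ, hψ, ← hsmul, ← hsmul, map_smul, Matrix.mulVec_smul,
      map_smul]
  · intro g h hgh
    have h1 : ψ g = ψ h := congrArg (fun t : cent ρ => ((t : GL κ F) : Matrix κ κ F)) hgh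
    refine Subtype.ext (Matrix.ext_of_mulVec_single fun k => ?_)
    obtain ⟨v, hv⟩ := ε.surjective (Pi.single k 1)
    rw [← hv]
    refine ε.symm.injective ?_
    rw [← hψ, ← hψ, h1]

/-- An element of the normaliser moving the field has a small fixed space. -/
theorem le_rank_of_not_comm {E : Type*} [Field E] [Algebra F E] {ρ : E →ₐ[F] Matrix κ κ F} {g : GL κ F}
    {a a' : E} (ha : (g : Matrix κ κ F) * ρ a = ρ a' * (g : Matrix κ κ F)) (hne : a' ≠ a) :
    d ≤ ((g : Matrix κ κ F) - 1).rank := by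
  set N := ((g : Matrix κ κ F) - 1).mulVecLin with hN
  set X := LinearMap.ker N with hX
  have hmem : ∀ v, v ∈ X ↔ (g : Matrix κ κ F) *ᵥ v = v := fun v => by
    simp [hX, hN, Matrix.sub_mulVec, sub_eq_zero]
  let L : X →ₗ[F] ((κ → F) ⧸ X) := X.mkQ ∘ₗ (ρ a).mulVecLin ∘ₗ X.subtype
  have hinj : Function.Injective L := by
    refine LinearMap.ker_eq_bot.1 (LinearMap.ker_eq_bot'.2 fun v hv => Subtype.ext ?_)
    have h1 : ρ a *ᵥ v.1 ∈ X := (Submodule.Quotient.mk_eq_zero X).1 hv
    rw [hmem, Matrix.mulVec_mulVec, ha, ← Matrix.mulVec_mulVec, (hmem _).1 v.2] at h1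
    refine IsRep.mulVec_eq_zero ρ (sub_ne_zero.2 hne) ?_
    rw [map_sub, Matrix.sub_mulVec, h1, sub_self]
  have h1 := LinearMap.finrank_le_finrank_of_injective hinj
  have h2 := X.finrank_quotient_add_finrank
  have h3 := LinearMap.finrank_range_add_finrank_ker N
  show d ≤ finrank F (LinearMap.range N)
  simp only [Module.finrank_fintype_fun_eq_card, Fintype.card_sum, Fintype.card_fin] at h2 h3
  rw [← hX] at h3
  omega

/-- An element of order `r` in the normaliser commutes with the field, for `r` other than the degree or for small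
rank. -/
theorem comm_of_normalizes [Fintype F] {E : Type*} [Field E] [Algebra F E] [Finite E] {ρ : E →ₐ[F] Matrix κ κ F}
    {g : GL κ F} {r : ℕ} [Fact r.Prime] (hgr : g ^ r = 1) (hn : ∀ a, ∃ a', (g : Matrix κ κ F) * ρ a = ρ a' * (g : Matrix κ κ F))
    (hd : 0 < d) (hk : (finrank F E).Prime)
    (h : r ≠ finrank F E ∨ ((g : Matrix κ κ F) - 1).rank < d) :
    ∀ a, (g : Matrix κ κ F) * ρ a = ρ a * (g : Matrix κ κ F) := by
  haveI : Nonempty κ := ⟨Sum.inl ⟨0, hd⟩⟩
  haveI : FiniteDimensional F E := Module.Finite.of_finite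
  intro a
  rcases h with h | h
  · choose φ hφ using hn
    have hinj : Function.Injective ρ := ρ.toRingHom.injective
    have key : ∀ x y : Matrix κ κ F, x * (g : Matrix κ κ F) = y * (g : Matrix κ κ F) → x = y := fun x y e => by
      simpa [mul_assoc] using congrArg (· * ((g⁻¹ : GL κ F) : Matrix κ κ F)) e
    let φ0 : E →ₐ[F] E :=
      { toFun := φ
        map_one' := hinj (key _ _ (by rw [← hφ, map_one, mul_one, one_mul]))
        map_mul' := fun x y => hinj (key _ _ (by
          rw [← hφ, map_mul, ← mul_assoc, hφ, mul_assoc, hφ, map_mul, mul_assoc]))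
        map_zero' := hinj (key _ _ (by rw [← hφ, map_zero, mul_zero, zero_mul]))
        map_add' := fun x y => hinj (key _ _ (by rw [← hφ, map_add, map_add, mul_add, add_mul, hφ, hφ]))
        commutes' := fun c => hinj (key _ _ (by
          rw [← hφ, AlgHom.commutes, Algebra.algebraMap_eq_smul_one, Matrix.mul_smul, mul_one, Matrix.smul_mul,
            one_mul])) }
    let e : E ≃ₐ[F] E := AlgEquiv.ofBijective φ0 (Finite.injective_iff_bijective.1 φ0.toRingHom.injective)
    have hpow : ∀ (n : ℕ) x, ((g ^ n : GL κ F) : Matrix κ κ F) * ρ x =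
        ρ ((e ^ n) x) * ((g ^ n : GL κ F) : Matrix κ κ F) := by
      intro n
      induction n with
      | zero => intro x; simp
      | succ n ih =>
        intro x
        rw [pow_succ, Units.val_mul, mul_assoc, hφ, ← mul_assoc, ih, pow_succ e, mul_assoc]
        rfl
    have her : e ^ r = 1 := AlgEquiv.ext fun x => hinj (by
      have h' := hpow r x
      rw [hgr, Units.val_one, one_mul, mul_one] at h'
      exact h'.symm)
    have hcard : Nat.card (E ≃ₐ[F] E) = finrank F E := IsGalois.card_aut_eq_finrank F E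
    have he : e = 1 := by
      have h' := pow_gcd_eq_one.2 ⟨her, (pow_card_eq_one' : e ^ Nat.card (E ≃ₐ[F] E) = 1)⟩
      rw [hcard, (Nat.coprime_primes (Fact.out : r.Prime) hk).2 h, pow_one] at h'
      exact h'
    have ha := hφ a
    rwa [show φ a = a from AlgEquiv.congr_fun he a] at ha
  · obtain ⟨a', ha'⟩ := hn a
    by_contra hne
    have hne' : a' ≠ a := fun e => hne (by rw [e] at ha'; exact ha')
    exact absurd (le_rank_of_not_comm ha' hne') (not_le.2 h)

end CfsgLib.Classical.PrimeDerangement.SympExt
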