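import Cfsg.Agent.Classical.PrimeDerangement.SympExt.Derange
import Cfsg.Agent.Classical.PrimeDerangement.UnitarySp.Std
import Cfsg.Agent.Classical.PrimeDerangement.Sympl.SpBasis
import Cfsg.Agent.Classical.Symp.Card

/-!
Which prime orders are covered by the conjugates of the normaliser of a self-adjoint alternating field.
-/

set_option autoImplicit false
set_option maxHeartbeats 800000

namespace CfsgLib.Classical.PrimeDerangement.SympExt

open Matrix Module

universe u

variable {F : Type u} [Field F] {d : ℕ}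

local notation "κ" => (Fin d ⊕ Fin d)

/-- The symplectic elements commuting with the field normalise it. -/
theorem cent_le {E : Type*} [Field E] [Algebra F E] {ρ : E →ₐ[F] Matrix κ κ F} {K : Subalgebra F (Matrix κ κ F)}
    (hmem : ∀ m, m ∈ K ↔ ∃ a, ρ a = m) : cent ρ ≤ Cfsg.Geo.subalgebraNormalizer K := by
  have key : ∀ g ∈ cent ρ, ∀ m ∈ K, (g : Matrix κ κ F) * m * ((g⁻¹ : GL κ F) : Matrix κ κ F) = m := by
    intro g hg m hm
    obtain ⟨a, rfl⟩ := (hmem m).1 hm
    rw [hg.2 a, mul_assoc, Units.mul_inv, mul_one]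
  intro g hg m
  refine ⟨fun hm => by rwa [key g hg m hm], fun hm => ?_⟩
  have h := key g⁻¹ (inv_mem hg) _ hm
  simp only [inv_inv, mul_assoc, Units.inv_mul_cancel_left, Units.inv_mul, mul_one] at h
  rw [mul_assoc] at hm
  rwa [← h] at hm

/-- An element centralising no field of this degree is a derangement. -/
theorem no_conj [Fintype F] (hd : 0 < d) {E : Type u} [Field E] [Algebra F E] [Finite E]
    {ρ : E →ₐ[F] Matrix κ κ F} (hρ : IsRep ρ) {K : Subalgebra F (Matrix κ κ F)}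
    (hmem : ∀ m, m ∈ K ↔ ∃ a, ρ a = m) {k : ℕ} (hE : finrank F E = k) (hk : k.Prime) {r : ℕ} [Fact r.Prime]
    {x : GL κ F} (hxr : x ^ r = 1) (hsmall : r ≠ k ∨ ((x : Matrix κ κ F) - 1).rank < d) (hno : NoField k x)
    (hall : ∀ y ∈ Cfsg.spGL d F, (∃ z : F, ((y ^ r : GL κ F) : Matrix κ κ F) = z • 1) →
      (∀ z : F, (y : Matrix κ κ F) ≠ z • 1) →
      ∃ g ∈ Cfsg.spGL d F, g⁻¹ * y * g ∈ Cfsg.Geo.subalgebraNormalizer K) (hx : x ∈ Cfsg.spGL d F) : False := by
  obtain ⟨g, hg, hgN⟩ := hall x hx ⟨1, by rw [hxr, Units.val_one, one_smul]⟩ fun z hz => hno E ρ hρ hE fun a => by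
    rw [hz, Matrix.smul_mul, one_mul, Matrix.mul_smul, mul_one]
  set y := g⁻¹ * x * g with hy
  have hyr : y ^ r = 1 := by
    rw [hy, show g⁻¹ * x * g = g⁻¹ * x * (g⁻¹)⁻¹ by rw [inv_inv], conj_pow, hxr]; simp
  have hrank : ((y : Matrix κ κ F) - 1).rank = ((x : Matrix κ κ F) - 1).rank := by
    have := SpTensor.rank_conj x g⁻¹
    rwa [inv_inv] at this
  have hn : ∀ a, ∃ a', (y : Matrix κ κ F) * ρ a = ρ a' * (y : Matrix κ κ F) := fun a => by
    obtain ⟨a', ha'⟩ := (hmem _).1 ((hgN (ρ a)).1 ((hmem _).2 ⟨a, rfl⟩))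
    exact ⟨a', by rw [ha', mul_assoc, Units.inv_mul, mul_one]⟩
  have hcomm := comm_of_normalizes hyr hn hd (by rw [hE]; exact hk) (by rw [hE, hrank]; exact hsmall)
  let ρ' : E →ₐ[F] Matrix κ κ F :=
    { toFun := fun a => (g : Matrix κ κ F) * ρ a * ((g⁻¹ : GL κ F) : Matrix κ κ F)
      map_one' := by rw [map_one, mul_one, Units.mul_inv]
      map_mul' := fun a b => by simp only [map_mul, mul_assoc, Units.inv_mul_cancel_left]
      map_zero' := by rw [map_zero, mul_zero, zero_mul]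
      map_add' := fun a b => by rw [map_add, mul_add, add_mul]
      commutes' := fun c => by
        rw [AlgHom.commutes, Algebra.algebraMap_eq_smul_one, Matrix.mul_smul, mul_one, Matrix.smul_mul,
          Units.mul_inv] }
  have hgg := SympFormStd.mem_spGL.1 hg
  have hcan : ∀ w, (g : Matrix κ κ F) *ᵥ (((g⁻¹ : GL κ F) : Matrix κ κ F) *ᵥ w) = w := fun w => by
    rw [Matrix.mulVec_mulVec, Units.mul_inv, Matrix.one_mulVec]
  have happ : ∀ a w, ρ' a *ᵥ w = (g : Matrix κ κ F) *ᵥ (ρ a *ᵥ (((g⁻¹ : GL κ F) : Matrix κ κ F) *ᵥ w)) :=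
    fun a w => by rw [Matrix.mulVec_mulVec, Matrix.mulVec_mulVec]; rfl
  refine hno E ρ' ⟨fun a u v => ?_, fun a v => ?_⟩ hE fun a => ?_
  · rw [happ, happ]
    calc Cfsg.sympForm d F _ v
        = Cfsg.sympForm d F (ρ a *ᵥ (((g⁻¹ : GL κ F) : Matrix κ κ F) *ᵥ u))
            (((g⁻¹ : GL κ F) : Matrix κ κ F) *ᵥ v) :=
          (congrArg _ (hcan v).symm).trans (hgg _ _)
      _ = Cfsg.sympForm d F (((g⁻¹ : GL κ F) : Matrix κ κ F) *ᵥ u)
            (ρ a *ᵥ (((g⁻¹ : GL κ F) : Matrix κ κ F) *ᵥ v)) := hρ.adj _ _ _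
      _ = _ := by rw [← hgg, hcan]
  · rw [happ]
    exact ((congrArg _ (hcan v).symm).trans (hgg _ _)).trans (hρ.alt _ _)
  · have hxg : (x : Matrix κ κ F) * (g : Matrix κ κ F) = (g : Matrix κ κ F) * (y : Matrix κ κ F) := by
      rw [← Units.val_mul, ← Units.val_mul, hy]; group
    show (x : Matrix κ κ F) * ((g : Matrix κ κ F) * ρ a * ((g⁻¹ : GL κ F) : Matrix κ κ F)) =
      (g : Matrix κ κ F) * ρ a * ((g⁻¹ : GL κ F) : Matrix κ κ F) * (x : Matrix κ κ F)
    calc (x : Matrix κ κ F) * ((g : Matrix κ κ F) * ρ a * ((g⁻¹ : GL κ F) : Matrix κ κ F))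
        = (g : Matrix κ κ F) * ((y : Matrix κ κ F) * ρ a) * ((g⁻¹ : GL κ F) : Matrix κ κ F) := by
          rw [← mul_assoc, ← mul_assoc, hxg, ← mul_assoc]
      _ = _ := by
          rw [hcomm, hy]
          simp [Units.val_mul, mul_assoc]

/-- Primes whose order modulo `q` matches the degree do not divide the index. -/
theorem not_dvd_relIndex [Fintype F] {E : Type u} [Field E] [Algebra F E] [Finite E] {ρ : E →ₐ[F] Matrix κ κ F}
    (hρ : IsRep ρ) {K : Subalgebra F (Matrix κ κ F)} (hmem : ∀ m, m ∈ K ↔ ∃ a, ρ a = m) {k : ℕ}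
    (hE : finrank F E = k) {r : ℕ} [Fact r.Prime] (hrF : (r : F) ≠ 0)
    (hk : ∀ j, orderOf (Fintype.card F : ZMod r) ∣ 2 * j → k ∣ j) :
    ¬ r ∣ (Cfsg.Geo.subalgebraNormalizer K).relIndex (Cfsg.spGL d F) := by
  classical
  intro hdvd
  set S := Cfsg.spGL d F
  set H := Cfsg.Geo.subalgebraNormalizer K
  haveI : FiniteDimensional F E := Module.Finite.of_finite
  letI : Fintype E := Fintype.ofFinite E
  obtain ⟨e, hde, hcent⟩ := exists_card_dvd hρ
  rw [hE] at hde
  have h1 : Nat.card (cent ρ) ∣ Nat.card (H.subgroupOf S) := by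
    refine Subgroup.card_dvd_of_injective ((((cent ρ).subtype).codRestrict S fun x => x.2.1).codRestrict
      (H.subgroupOf S) fun x => cent_le hmem x.2) ?_
    intro a b h
    exact Subtype.ext (congrArg (fun t : H.subgroupOf S => ((t : S) : GL κ F)) h)
  have h3 : r * Nat.card (Matrix.symplecticGroup (Fin e) E) ∣ Nat.card S := by
    rw [← (H.subgroupOf S).index_mul_card]
    exact mul_dvd_mul hdvd (hcent.trans h1)
  have hSp : Nat.card S = Nat.card (Matrix.symplecticGroup (Fin d) F) :=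
    Nat.card_congr ⟨fun g => SpTensor.toSp g.2, fun g => ⟨SpTensor.ofSp g, SpTensor.ofSp_mem g⟩,
      fun g => Subtype.ext (Units.ext rfl), fun g => Subtype.ext rfl⟩
  rw [hSp, Symp.card_symplecticGroup, Symp.card_symplecticGroup, Module.card_eq_pow_finrank (K := F) (V := E),
    hE] at h3
  set q := Fintype.card F with hq
  have hq1 : 1 < q := Fintype.one_lt_card
  set g : ℕ → ℕ := fun j => q ^ (2 * (j + 1)) - 1 with hg
  rw [← Finset.prod_filter_mul_prod_filter_not (Finset.range d) (fun j => k ∣ j + 1)] at h3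
  set A := ∏ j ∈ (Finset.range d).filter (fun j => k ∣ j + 1), g j with hA
  set B := ∏ j ∈ (Finset.range d).filter (fun j => ¬ k ∣ j + 1), g j with hB
  have hk0 : 0 < k := hE ▸ Module.finrank_pos
  have hA' : ∏ l ∈ Finset.range e, ((q ^ k) ^ (2 * (l + 1)) - 1) = A := by
    refine Finset.prod_bij (fun l _ => k * (l + 1) - 1) (fun l hl => ?_) (fun l _ l' _ h => ?_) (fun j hj => ?_)
      fun l _ => ?_
    · have h1 : k * (l + 1) ≤ k * e := Nat.mul_le_mul_left k (by simpa [Finset.mem_range] using hl)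
      have h2 : 0 < k * (l + 1) := Nat.mul_pos hk0 (by omega)
      rw [Finset.mem_filter, Finset.mem_range]
      exact ⟨by omega, ⟨l + 1, by omega⟩⟩
    · have h1 : 0 < k * (l + 1) := Nat.mul_pos hk0 (by omega)
      have h2 : 0 < k * (l' + 1) := Nat.mul_pos hk0 (by omega)
      have : k * (l + 1) = k * (l' + 1) := by omega
      have := Nat.eq_of_mul_eq_mul_left hk0 this
      omega
    · rw [Finset.mem_filter, Finset.mem_range] at hj
      obtain ⟨hjd, c, hc⟩ := hj
      have hc0 : 0 < c := Nat.pos_of_ne_zero fun h => by rw [h, mul_zero] at hc; omega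
      refine ⟨c - 1, ?_, by rw [Nat.sub_add_cancel hc0]; omega⟩
      rw [Finset.mem_range]
      have : k * c ≤ k * e := by omega
      have := Nat.le_of_mul_le_mul_left this hk0
      omega
    · have h2 : 0 < k * (l + 1) := Nat.mul_pos hk0 (by omega)
      show _ = q ^ (2 * (k * (l + 1) - 1 + 1)) - 1
      rw [Nat.sub_add_cancel h2, ← pow_mul, mul_left_comm]
  rw [hA'] at h3
  have hA0 : 0 < A := Finset.prod_pos fun j _ => by
    show 0 < q ^ (2 * (j + 1)) - 1
    have : 1 < q ^ (2 * (j + 1)) := Nat.one_lt_pow (by omega) hq1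
    omega
  have h4 : r * A ∣ q ^ (d ^ 2) * B * A :=
    ((Nat.mul_dvd_mul_left r (dvd_mul_left _ _)).trans h3).trans (dvd_of_eq (by ring))
  have h5 : r ∣ q ^ (d ^ 2) * B := Nat.dvd_of_mul_dvd_mul_right hA0 h4
  have hrp := (Fact.out : r.Prime)
  rcases hrp.dvd_mul.1 h5 with h | h
  · exact Semisimple.card_ne_zero_mod hrF ((ZMod.natCast_eq_zero_iff _ _).2 (hrp.dvd_of_dvd_pow h))
  · obtain ⟨j, hj, hj'⟩ := (Nat.Prime.prime hrp).exists_mem_finset_dvd h
    exact (Finset.mem_filter.1 hj).2 (hk _ ((Semisimple.dvd_pow_sub_one_iff_orderOf_dvd _).1 hj'))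

section four

local notation "ι4" => (Fin 2 ⊕ Fin 2)

/-- A model commuting or anticommuting with the standard root gives a conjugate in the normaliser. -/
theorem conj_of_model {K : Subalgebra F (Matrix ι4 ι4 F)} {j J : Matrix ι4 ι4 F} (hjK : j ∈ K)
    (hgen : ∀ k ∈ K, ∃ s t : F, k = s • (1 : Matrix ι4 ι4 F) + t • j) {P : GL ι4 F} (hP : P ∈ Cfsg.spGL 2 F)
    (hframe : j * (P : Matrix ι4 ι4 F) = (P : Matrix ι4 ι4 F) * J) {x c : GL ι4 F} (hc : c ∈ Cfsg.spGL 2 F)
    {M : Matrix ι4 ι4 F} (hcM : (x : Matrix ι4 ι4 F) * (c : Matrix ι4 ι4 F) = (c : Matrix ι4 ι4 F) * M) {ε : F}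
    (hε : ε * ε = 1) (hMJ : M * J = ε • (J * M)) :
    ∃ g ∈ Cfsg.spGL 2 F, g⁻¹ * x * g ∈ Cfsg.Geo.subalgebraNormalizer K := by
  refine ⟨c * P⁻¹, mul_mem hc (inv_mem hP), UnitarySp.mem_normalizer_of_conj hjK hgen (ε := ε) hε ?_⟩
  set y := (c * P⁻¹)⁻¹ * x * (c * P⁻¹) with hy
  have hyP : (y : Matrix ι4 ι4 F) * (P : Matrix ι4 ι4 F) = (P : Matrix ι4 ι4 F) * M := by
    have e : y * P = P * (c⁻¹ * x * c) := by rw [hy]; group
    rw [← Units.val_mul, e, Units.val_mul]
    congr 1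
    rw [Units.val_mul, Units.val_mul, mul_assoc, hcM, ← mul_assoc, Units.inv_mul, one_mul]
  have hj : j = (P : Matrix ι4 ι4 F) * J * ((P⁻¹ : GL ι4 F) : Matrix ι4 ι4 F) := by
    rw [← hframe, mul_assoc, Units.mul_inv, mul_one]
  have hyj : (y : Matrix ι4 ι4 F) * j = ε • (j * (y : Matrix ι4 ι4 F)) := by
    refine (Units.mul_left_inj P).1 ?_
    rw [hj]
    simp only [Matrix.smul_mul, mul_assoc, Units.inv_mul, mul_one, hyP, Units.inv_mul_cancel_left]
    rw [← mul_assoc (y : Matrix ι4 ι4 F), hyP, mul_assoc, hMJ, Matrix.mul_smul]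
  rw [hyj, Matrix.smul_mul, mul_assoc, Units.mul_inv, mul_one]

/-- In dimension four every element of order two has a conjugate in the normaliser. -/
theorem conj_two [Finite F] (h2 : (2 : F) ≠ 0) {K : Subalgebra F (Matrix ι4 ι4 F)} {j : Matrix ι4 ι4 F} {μ : F}
    (hμ : ∀ c : F, c * c ≠ μ) (hjK : j ∈ K) (hjj : j * j = μ • 1)
    (hgen : ∀ k ∈ K, ∃ s t : F, k = s • (1 : Matrix ι4 ι4 F) + t • j)
    (hadj : ∀ u v, Cfsg.sympForm 2 F (j *ᵥ u) v = Cfsg.sympForm 2 F u (j *ᵥ v))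
    (halt : ∀ v, Cfsg.sympForm 2 F (j *ᵥ v) v = 0) {x : GL ι4 F} (hx : x ∈ Cfsg.spGL 2 F) {z : F}
    (hz : ((x ^ 2 : GL ι4 F) : Matrix ι4 ι4 F) = z • 1) (hns : ∀ z : F, (x : Matrix ι4 ι4 F) ≠ z • 1) :
    ∃ g ∈ Cfsg.spGL 2 F, g⁻¹ * x * g ∈ Cfsg.Geo.subalgebraNormalizer K := by
  classical
  have hμ0 : μ ≠ 0 := fun h => hμ 0 (by rw [h, mul_zero])
  have hj2 : ∀ v, j *ᵥ (j *ᵥ v) = μ • v := fun v => by
    rw [Matrix.mulVec_mulVec, hjj, Matrix.smul_mulVec, Matrix.one_mulVec]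
  have halt' : ∀ v, Cfsg.sympForm 2 F v (j *ᵥ v) = 0 := fun v => by rw [← hadj, halt]
  set u : ι4 → F := Symp.stdF 0 with hu
  set w₀ : ι4 → F := Symp.stdE 0 with hw₀
  have huw₀ : Cfsg.sympForm 2 F u w₀ = -1 := by rw [hu, hw₀, Symp.form_stdF_stdE, if_pos rfl]
  set c := Cfsg.sympForm 2 F u (j *ᵥ w₀) with hc
  have hne : μ - c * c ≠ 0 := sub_ne_zero.2 fun h => hμ c h.symm
  set w := (μ / (μ - c * c)) • w₀ + (c / (μ - c * c)) • (j *ᵥ w₀) with hw
  have huw : Cfsg.sympForm 2 F u w = -1 := by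
    rw [hw, Symp.form_add_right, Symp.form_smul_right, Symp.form_smul_right, huw₀, ← hc]
    rw [div_mul_eq_mul_div, div_mul_eq_mul_div, ← add_div, div_eq_iff hne]
    ring
  have hujw : Cfsg.sympForm 2 F u (j *ᵥ w) = 0 := by
    rw [hw, Matrix.mulVec_add, Matrix.mulVec_smul, Matrix.mulVec_smul, hj2, Symp.form_add_right,
      Symp.form_smul_right, Symp.form_smul_right, Symp.form_smul_right, huw₀, ← hc]
    ring
  obtain ⟨P, hP, hPe⟩ := Sympl.exists_colMat_mem (a := u) (b := w) (c := j *ᵥ u) (d := μ⁻¹ • (j *ᵥ w)) huw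
    (by rw [Symp.form_smul_right, hadj, hj2, Symp.form_smul_right, huw]; field_simp)
    (halt' u) (by rw [Symp.form_smul_right, hujw, mul_zero])
    (by rw [Symp.form_swap, hadj, hujw, neg_zero]) (by rw [Symp.form_smul_right, halt', mul_zero])
  set J : Matrix ι4 ι4 F := Matrix.fromBlocks !![0, μ; 1, 0] 0 0 !![0, 1; μ, 0] with hJ
  have hframe : j * (P : Matrix ι4 ι4 F) = (P : Matrix ι4 ι4 F) * J := by
    rw [hPe, Sympl.mul_colMat, hj2, Matrix.mulVec_smul, hj2, inv_smul_smul₀ hμ0]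
    ext r l
    rcases l with l | l <;> fin_cases l <;>
      simp [Sympl.colMat, hJ, Matrix.mul_apply, Fintype.sum_sum_type, Fin.sum_univ_two, hμ0, mul_comm]
  have hx2 : (x : Matrix ι4 ι4 F) * (x : Matrix ι4 ι4 F) = z • 1 := by rw [← Units.val_mul, ← pow_two, hz]
  rcases mul_self_eq_one_iff.1 (SpTensor.sq_eq_one_of_scalar two_pos (pow_mem hx 2) hz) with rfl | rfl
  · rw [one_smul] at hx2
    obtain ⟨c, hc, hxc⟩ := Sympl.involution_form hx hx2 h2 (fun h => hns 1 (by rw [h, one_smul]))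
      (fun h => hns (-1) (by rw [h, neg_one_smul]))
    refine conj_of_model hjK hgen hP hframe hc hxc (ε := -1) (by ring) ?_
    ext r l
    rcases r with r | r <;> rcases l with l | l <;> fin_cases r <;> fin_cases l <;>
      simp [hJ, Matrix.mul_apply, Fintype.sum_sum_type, Fin.sum_univ_two]
  · set T : Matrix ι4 ι4 F := Matrix.fromBlocks 0 (Matrix.diagonal ![-1, -μ⁻¹]) (Matrix.diagonal ![1, μ]) 0 with hT
    have hTT : T * T = -1 := by
      ext r l
      rcases r with r | r <;> rcases l with l | l <;> fin_cases r <;> fin_cases l <;>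
        simp [hT, Matrix.mul_apply, Fintype.sum_sum_type, Fin.sum_univ_two, hμ0]
    have hTs : T ∈ Matrix.symplecticGroup (Fin 2) F := by
      rw [SymplecticGroup.mem_iff']
      ext r l
      rcases r with r | r <;> rcases l with l | l <;> fin_cases r <;> fin_cases l <;>
        simp [hT, Matrix.J, Matrix.mul_apply, Fintype.sum_sum_type, Fin.sum_univ_two, hμ0]
    set t : GL ι4 F := SpTensor.ofSp (⟨T, hTs⟩ : Matrix.symplecticGroup (Fin 2) F) with ht
    have htm : t ∈ Cfsg.spGL 2 F := SpTensor.ofSp_mem _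
    obtain ⟨c, hc, hxc⟩ := SpTensor.exists_conj_of_isConj hx htm (Symp.isConj_of_sq_eq_neg_one h2 hTT (by
        show (x : Matrix ι4 ι4 F) * (x : Matrix ι4 ι4 F) = -1
        rw [hx2, neg_one_smul]))
    refine conj_of_model hjK hgen hP hframe hc (M := T) ?_ (ε := 1) (by ring) ?_
    · rw [← Units.val_mul, show x * c = c * t by rw [← hxc]; group, Units.val_mul]
      rfl
    · ext r l
      rcases r with r | r <;> rcases l with l | l <;> fin_cases r <;> fin_cases l <;>
        simp [hT, hJ, Matrix.mul_apply, Fintype.sum_sum_type, Fin.sum_univ_two, hμ0]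

end four

/-- The criterion. -/
theorem criterion [Fintype F] {p : ℕ} [Fact p.Prime] [CharP F p] {q : ℕ} (hq : Fintype.card F = q) (hd : 2 ≤ d)
    {k : ℕ} (hk : k.Prime) {K : Subalgebra F (Matrix κ κ F)} (hK : Cfsg.Geo.IsFieldSubalgebra k K)
    (hKf : Cfsg.Geo.IsSelfAdjointFor (Cfsg.sympForm d F) K)
    (hKalt : ∀ a ∈ K, ∀ v, Cfsg.sympForm d F (a *ᵥ v) v = 0) {r : ℕ} [Fact r.Prime]
    (hΩ : r ∣ (Cfsg.Geo.subalgebraNormalizer K).relIndex (Cfsg.spGL d F)) :
    (∀ x ∈ Cfsg.spGL d F, (∃ z : F, ((x ^ r : GL κ F) : Matrix κ κ F) = z • 1) →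
      (∀ z : F, (x : Matrix κ κ F) ≠ z • 1) →
      ∃ g ∈ Cfsg.spGL d F, g⁻¹ * x * g ∈ Cfsg.Geo.subalgebraNormalizer K) ↔
    (r = 2 ∧ d = 2 ∧ k = 2 ∧ Odd q) := by
  classical
  obtain ⟨E, iE, iA, ρ, hEfin, hE, hρ, hmem⟩ := exists_rep (by omega) hK hKf hKalt
  obtain ⟨e, hde, -⟩ := exists_card_dvd hρ
  rw [hE] at hde
  have hkd : k ≤ d := Nat.le_of_dvd (by omega) ⟨e, hde⟩
  have hk1 : k ≠ 1 := hk.ne_one
  constructor
  · intro hall
    by_cases hrF : (r : F) = 0
    · have hrp : p = r :=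
        (Nat.prime_dvd_prime_iff_eq (Fact.out : p.Prime) (Fact.out : r.Prime)).1 ((CharP.cast_eq_zero_iff F p r).1 hrF)
      subst hrp
      obtain ⟨x, hx, hxp, hrk, hno⟩ := exists_noField_p (p := p) (F := F) (d := d) (by omega) hk1
      exact (no_conj (by omega) hρ hmem hE hk hxp (Or.inr (by omega)) hno hall hx).elim
    by_cases hr2 : r = 2
    · subst hr2
      have h2 : (2 : F) ≠ 0 := by exact_mod_cast hrF
      have hodd : Odd q := hq ▸ Nat.odd_iff.2 (FiniteField.odd_card_of_char_ne_two fun h => h2 (by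
        haveI := ringChar.charP F
        exact_mod_cast (CharP.cast_eq_zero_iff F (ringChar F) 2).2 (h ▸ dvd_rfl)))
      by_cases hd2 : d = 2
      · exact ⟨rfl, hd2, le_antisymm (by omega) hk.two_le, hodd⟩
      · obtain ⟨x, hx, hxx, hrk, hno⟩ := exists_noField_two (d := d) h2 (by omega) hk1
        exact (no_conj (by omega) hρ hmem hE hk (r := 2) (by rw [pow_two, hxx]) (Or.inr (by omega)) hno hall hx).elim
    set i := orderOf (Fintype.card F : ZMod r) with hi
    have hir : i ∣ r - 1 := ZMod.orderOf_dvd_card_sub_one (Semisimple.card_ne_zero_mod hrF)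
    have hr0 : 0 < r - 1 := by have := (Fact.out : r.Prime).two_le; omega
    obtain ⟨h, hhd, hh⟩ := SpTensor.orderOf_half_le (d := d) hr2 hrF (hΩ.trans (Subgroup.relIndex_dvd_card _ _))
    exfalso
    by_cases hev : Even i
    · rw [if_pos hev] at hh
      by_cases hkh : k ∣ h
      · refine not_dvd_relIndex hρ hmem hE hrF (fun j hj => hkh.trans ?_) hΩ
        rw [← hh] at hj
        exact Nat.dvd_of_mul_dvd_mul_left two_pos hj
      · obtain ⟨x, hx, hxr, hrk, hno⟩ := exists_noField_even hr2 hrF hh.symm hhd hkh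
        refine no_conj (by omega) hρ hmem hE hk hxr ?_ hno hall hx
        by_cases hrk' : r = k
        · have := Nat.le_of_dvd hr0 hir
          exact Or.inr (by omega)
        · exact Or.inl hrk'
    · rw [if_neg hev] at hh
      have hodd := Nat.not_even_iff_odd.1 hev
      by_cases hki : k ∣ i
      · exact not_dvd_relIndex hρ hmem hE hrF
          (fun j hj => hki.trans ((Nat.Coprime.dvd_mul_left (Nat.coprime_two_right.2 hodd)).1 hj)) hΩ
      · obtain ⟨x, hx, hxr, hrk, hno⟩ := exists_noField_odd hr2 hrF hodd (show i ≤ d by omega) hki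
        refine no_conj (by omega) hρ hmem hE hk hxr ?_ hno hall hx
        by_cases hrk' : r = k
        · have h2i : 2 * i ∣ r - 1 := (Nat.coprime_two_left.2 hodd).mul_dvd_of_dvd_of_dvd
            (even_iff_two_dvd.1 ((Fact.out : r.Prime).even_sub_one hr2)) hir
          have := Nat.le_of_dvd hr0 h2i
          exact Or.inr (by omega)
        · exact Or.inl hrk'
  · rintro ⟨rfl, rfl, rfl, hodd⟩ x hx ⟨z, hz⟩ hns
    have h2 : (2 : F) ≠ 0 := fun h => by
      haveI := ringChar.charP F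
      have hc : ringChar F = 2 := (Nat.prime_dvd_prime_iff_eq (CharP.char_is_prime F (ringChar F)) Nat.prime_two).1
        ((CharP.cast_eq_zero_iff F (ringChar F) 2).1 (by exact_mod_cast h))
      exact (Nat.not_even_iff_odd.2 (hq ▸ hodd)) (Nat.even_iff.2 (FiniteField.even_card_of_char_two hc))
    have hF2 : ringChar F ≠ 2 := fun h => h2 (by
      haveI := ringChar.charP F
      exact_mod_cast (CharP.cast_eq_zero_iff F (ringChar F) 2).2 (h ▸ dvd_rfl))
    obtain ⟨μ, hμ⟩ := FiniteField.exists_nonsquare hF2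
    have hμ' : ∀ c : F, c * c ≠ μ := fun c hc => hμ ⟨c, hc.symm⟩
    haveI : FiniteDimensional F E := Module.Finite.of_finite
    letI : Fintype E := Fintype.ofFinite E
    have hμ0 : μ ≠ 0 := fun h => hμ' 0 (by rw [h, mul_zero])
    obtain ⟨θ, hθ⟩ : IsSquare (algebraMap F E μ) := by
      have hcE : Fintype.card E = Fintype.card F ^ 2 := by rw [Module.card_eq_pow_finrank (K := F) (V := E), hE]
      have hE2 : ringChar E ≠ 2 := by rwa [← Algebra.ringChar_eq F E]
      obtain ⟨m, hm⟩ : Odd (Fintype.card F) := hq ▸ hodd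
      rw [FiniteField.isSquare_iff hE2 (by simpa using hμ0), ← map_pow,
        show Fintype.card E / 2 = (Fintype.card F - 1) * (m + 1) by
          rw [hcE, hm, show (2 * m + 1) ^ 2 = 2 * (2 * m * (m + 1)) + 1 by ring,
            show (2 * m + 1 - 1) = 2 * m by omega]
          omega,
        pow_mul, FiniteField.pow_card_sub_one_eq_one μ hμ0, one_pow, map_one]
    have hθ0 : ∀ c : F, θ ≠ algebraMap F E c := fun c h => hμ' c
      ((algebraMap F E).injective (by rw [map_mul, ← h]; exact hθ.symm))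
    let L : (F × F) →ₗ[F] E :=
      (Algebra.linearMap F E).coprod (LinearMap.toSpanSingleton F E θ)
    have hL : ∀ v, L v = algebraMap F E v.1 + v.2 • θ := fun v => rfl
    have hLi : Function.Injective L := LinearMap.ker_eq_bot.1 (LinearMap.ker_eq_bot'.2 fun v hv => by
      rw [hL, Algebra.smul_def] at hv
      by_cases h0 : v.2 = 0
      · rw [h0, map_zero, zero_mul, add_zero, map_eq_zero] at hv
        exact Prod.ext hv h0
      · refine absurd ?_ (hθ0 (-v.1 / v.2))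
        rw [map_div₀, map_neg, eq_div_iff (by simpa using h0)]
        linear_combination hv)
    have hLs := (LinearMap.injective_iff_surjective_of_finrank_eq_finrank (by
      rw [Module.finrank_prod, finrank_self, hE])).1 hLi
    refine conj_two h2 hμ' ((hmem _).2 ⟨θ, rfl⟩) ?_ ?_ (hρ.adj θ) (hρ.alt θ) hx hz hns
    · rw [← map_mul, ← hθ, AlgHom.commutes, Algebra.algebraMap_eq_smul_one]
    · intro m hm
      obtain ⟨a, rfl⟩ := (hmem m).1 hm
      obtain ⟨v, rfl⟩ := hLs a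
      exact ⟨v.1, v.2, by rw [hL, map_add, map_smul, AlgHom.commutes, Algebra.algebraMap_eq_smul_one]⟩

end CfsgLib.Classical.PrimeDerangement.SympExt
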